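import Cfsg.Agent.HNA.Cert
import Cfsg.Agent.CGT.Cons

set_option autoImplicit false
set_option Elab.async false
set_option maxRecDepth 100000
set_option linter.all false

namespace Cfsg.Agent.HNA
open Cfsg.Agent.CGT

noncomputable def GA : List (List ℕ) := [[1, 2, 2, 1, 3, 1, 3, 1, 2, 2, 0, 3, 3, 0, 2, 0, 2, 0, 3, 3, 2, 2, 2, 1, 3, 1, 3, 1, 2, 2, 1, 3, 3, 0, 2, 0, 2, 0, 3, 3, 0, 3], [1, 2, 2, 1, 3, 1, 3, 1, 2, 2, 0, 3, 3, 0, 2, 0, 2, 0, 3, 3, 0, 1, 2, 2, 1, 3, 1, 3, 1, 2, 2, 0, 3, 3, 0, 2, 0, 2, 0, 3, 3, 1], [1, 2, 2, 1, 3, 1, 3, 1, 2, 2, 0, 3, 3, 0, 2, 0, 2, 0, 3, 3, 1, 2, 2, 1, 3, 1, 3, 1, 2, 2, 0, 3, 3, 0, 2, 0, 2, 0, 3, 3, 1, 2, 2, 1, 3, 1, 3, 1, 2, 2, 0, 3, 3, 0, 2, 0, 2, 0, 3, 3], [1, 2, 2, 1, 3, 1, 3, 1, 2, 2, 0, 3, 3, 0, 2, 0, 2, 0, 3, 3, 7, 0,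 2, 1, 3, 3, 1, 3, 1, 3, 0, 2, 1, 3, 3, 1, 3, 1, 3, 0, 2, 1, 3, 3, 1, 3, 1, 3, 0, 2, 1, 3, 3, 1, 3, 1, 3, 0, 2, 1, 3, 3, 1, 3, 1, 3, 0, 2, 1, 3, 3, 1, 3, 1, 3, 0, 2, 1, 3, 3, 1, 3, 1, 3]]
theorem goals {G : Type*} [Group G] {δ : ℕ → G} {W : List (List ℕ)} (hl : W.length = 4)
    (h : Holds (ext (wg δ W)) RR) : Holds (ext δ) (GA.map (expand (dbl W))) := by
  obtain ⟨φ, C⟩ := cert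
  exact (pg_transfer (relsB_sound C.M C.base (by decide +kernel) (R := GA) (fun _ _ => trivial) (by decide +kernel)) hl h).expand

end Cfsg.Agent.HNA
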